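import Cfsg.Agent.DefOne.SmallDegree
import Cfsg.Agent.BlkChar.PModular
import Cfsg.Agent.BlkChar.PPrimeConstituent

/-!
# Faithful characters of small degree when `p` divides the order once
-/

set_option linter.style.haveILetI false
set_option linter.unusedSectionVars false

noncomputable section

namespace Cfsg.Agent.DefOne

open Cfsg
open Cfsg.Agent.Brauer (regSum)
open Cfsg.Agent.Brauer.OrderP (gpow sum_std sum_units conj_std)
open scoped ComplexConjugate Classical

universe u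

/-- The arithmetic. -/
theorem false_of_counts {p f e w A c n : ℕ} (hp : p % 2 = 1) (hf : 2 ≤ f) (he : e ≤ f)
    (hn : n = f * w) (hw : 1 ≤ w) (hp2 : 2 * n + 1 < p) (h1 : f * e = 1 + c + A)
    (h2 : 1 + A + (1 + p * w) * c ≤ n ^ 2) (h3 : p * f ≤ p + 2 * A + p * c) : False := by
  obtain ⟨g, rfl⟩ : ∃ g, f = g + 1 := ⟨f - 1, by omega⟩
  have hfe : (g + 1) * e ≤ (g + 1) * (g + 1) := Nat.mul_le_mul_left _ he
  rcases Nat.lt_or_ge w 2 with hw2 | hw2
  · obtain rfl : w = 1 := by omega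
    rw [hn, mul_one] at h2 hp2
    have h4 : g * (2 * (g + 1) + 2) ≤ g * p := Nat.mul_le_mul_left g (by omega)
    have h5 : g * (2 * (g + 1) + 3) ≤ g * p := Nat.mul_le_mul_left g (by omega)
    nlinarith
  · have h6 : p * w * c < (g + 1) * (g + 1) * w * w := by
      rw [hn] at h2
      nlinarith
    have h7 : p * c < (g + 1) * (g + 1) * w := by
      refine Nat.lt_of_mul_lt_mul_right (a := w) ?_
      nlinarith
    have h8 : 2 * c ≤ g := by
      by_contra h
      have h9 : p * (g + 1) ≤ p * (2 * c) := Nat.mul_le_mul_left p (by omega)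
      have h10 : (g + 1) * (2 * ((g + 1) * w)) ≤ (g + 1) * p :=
        Nat.mul_le_mul_left _ (by rw [← hn]; omega)
      nlinarith
    have h11 : 4 * (g + 1) + 3 ≤ p := by
      have : 2 * (g + 1) ≤ n := by rw [hn]; nlinarith
      omega
    have h12 : (p - 2) * (2 * c) ≤ (p - 2) * g := Nat.mul_le_mul_left _ h8
    have h13 : g * (4 * (g + 1) + 3) ≤ g * p := Nat.mul_le_mul_left g h11
    obtain ⟨r, rfl⟩ : ∃ r, p = r + 2 := ⟨p - 2, by omega⟩
    rw [Nat.add_sub_cancel] at h12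
    nlinarith

variable {G : Type u} [Group G] [Fintype G] {p : ℕ} [Fact p.Prime] {P : Sylow p G}
variable {M : Ideal AlgInt}

/-- The norm on a trivially intersecting part of the centraliser. -/
theorem sum_normSq_le (D : Finset (CP P))
    (hTI : ∀ c ∈ D, ∀ g : G, ∀ c' : CP P, (c' : G) = g * (c : G) * g⁻¹ → g ∈ NP P)
    (χ : IrrCharacter G) :
    ∑ c ∈ D, ‖(χ : G → ℂ) c‖ ^ 2 ≤ (Nat.card (NP P) : ℝ) := by
  set F : G → ℝ := fun x => ‖(χ : G → ℂ) x‖ ^ 2 with hF
  have htot : ∑ x : G, F x = (Nat.card G : ℝ) := by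
    have h := Char.sum_mul_conj_eq_card_mul_classInner (χ : G → ℂ) (χ : G → ℂ)
    rw [Char.classInner_irr_self χ.2, mul_one] at h
    simp only [Complex.mul_conj'] at h
    exact_mod_cast h
  have hconj : ∀ g c : G, F (g * c * g⁻¹) = F c := fun g c => by
    simp only [hF, Char.irr_isClassFunction χ.2 c g]
  set S : Finset (G × CP P) := Finset.univ ×ˢ D
  have hfib : ∀ x : G, (S.filter fun gc => gc.1 * (gc.2 : G) * gc.1⁻¹ = x).card ≤ Nat.card (NP P) := by
    intro x
    rcases (S.filter fun gc => gc.1 * (gc.2 : G) * gc.1⁻¹ = x).eq_empty_or_nonempty with h | ⟨⟨g0, c0⟩, h0⟩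
    · rw [h]; exact Nat.zero_le _
    have h0' := (Finset.mem_filter.1 h0).2
    have hmem : ∀ gc ∈ S.filter (fun gc => gc.1 * (gc.2 : G) * gc.1⁻¹ = x), g0⁻¹ * gc.1 ∈ NP P := by
      rintro ⟨g, c⟩ hgc
      obtain ⟨hS, hx⟩ := Finset.mem_filter.1 hgc
      refine hTI c (Finset.mem_product.1 hS).2 _ c0 ?_
      calc (c0 : G) = g0⁻¹ * (g0 * (c0 : G) * g0⁻¹) * g0 := by group
        _ = g0⁻¹ * (g * (c : G) * g⁻¹) * g0 := by rw [h0', ← hx]
        _ = _ := by group
    rw [← Nat.card_eq_finsetCard]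
    refine Nat.card_le_card_of_injective (fun gc => (⟨g0⁻¹ * gc.1.1, hmem _ gc.2⟩ : NP P)) ?_
    rintro ⟨⟨g, c⟩, h1⟩ ⟨⟨g', c'⟩, h2⟩ he
    have hg : g = g' := mul_left_cancel (congrArg Subtype.val he)
    subst hg
    have e := (Finset.mem_filter.1 h1).2.trans (Finset.mem_filter.1 h2).2.symm
    have hc : c = c' := Subtype.ext (mul_left_cancel (mul_right_cancel e))
    rw [Subtype.mk.injEq, hc]
  have hle : (Nat.card G : ℝ) * ∑ c ∈ D, F c ≤ (Nat.card (NP P) : ℝ) * (Nat.card G : ℝ) := by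
    calc (Nat.card G : ℝ) * ∑ c ∈ D, F c = ∑ gc ∈ S, F (gc.1 * (gc.2 : G) * gc.1⁻¹) := by
          rw [Finset.sum_product]
          simp only [hconj, Finset.sum_const, Finset.card_univ, nsmul_eq_mul, Nat.card_eq_fintype_card]
      _ = ∑ x : G, ((S.filter fun gc => gc.1 * (gc.2 : G) * gc.1⁻¹ = x).card : ℝ) * F x := by
          rw [← Finset.sum_fiberwise S (fun gc => gc.1 * (gc.2 : G) * gc.1⁻¹)]
          refine Finset.sum_congr rfl fun x _ => ?_
          rw [Finset.sum_congr rfl fun gc hgc => by rw [(Finset.mem_filter.1 hgc).2], Finset.sum_const,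
            nsmul_eq_mul]
      _ ≤ ∑ x : G, (Nat.card (NP P) : ℝ) * F x :=
          Finset.sum_le_sum fun x _ => mul_le_mul_of_nonneg_right (by exact_mod_cast hfib x) (sq_nonneg _)
      _ = _ := by rw [← Finset.mul_sum, htot]
  rw [mul_comm (Nat.card (NP P) : ℝ)] at hle
  exact le_of_mul_le_mul_left hle (Nat.cast_pos.2 Nat.card_pos)

namespace Loc

variable (L : Loc P)

/-- The degree from the multiplicities. -/
theorem degree_eq {χ : G → ℂ} (hχ : IsCharacter G χ)
    (m : ∀ η : IrrCharacter (CP P), L.Triv (η : CP P → ℂ) → ZMod p → ℕ)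
    (hm : ∀ (η : IrrCharacter (CP P)) h i, L.coef χ (η : CP P → ℂ) i = ∑ b : ZMod p, (m η h b : ℂ) * ZMod.stdAddChar (b * i)) :
    charDegree χ = ∑ η ∈ L.trivs.attach,
      (∑ c : ZMod p, m η.1 (L.mem_trivs.1 η.2) c) * charDegree (η.1 : CP P → ℂ) := by
  refine Nat.cast_injective (R := ℂ) ?_
  push_cast
  have h1 := L.apply_section (Char.isCharacter_isClassFunction hχ) 0 (y := 1)
    (by rw [orderOf_one]; exact (Fact.out : p.Prime).not_dvd_one)
  rw [Brauer.OrderP.gpow_zero, OneMemClass.coe_one, mul_one,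
    BlkChar.isCharacter_one_eq_charDegree hχ] at h1
  rw [h1, ← Finset.sum_attach]
  refine Finset.sum_congr rfl fun η _ => ?_
  rw [hm _ (L.mem_trivs.1 η.2), (Block.irr_one_eq_charDegree η.1.2).1]
  simp

/-- The square of a degree of the centraliser, below the centre. -/
theorem sq_degree_le (hgen : L.gen ∉ Subgroup.center G) (θ : IrrCharacter (CP P)) :
    charDegree (θ : CP P → ℂ) ^ 2 * p * Nat.card (Subgroup.center G) ≤ Nat.card (CP P) := by
  have hp : p.Prime := Fact.out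
  have hzC : ∀ z ∈ Subgroup.center G, z ∈ CP P := fun z hz =>
    Subgroup.mem_centralizer_iff.2 fun w _ => Subgroup.mem_center_iff.1 hz w
  let j : Subgroup.center G × ZMod p → Subgroup.center (CP P) := fun zi =>
    ⟨L.up zi.2 * ⟨(zi.1 : G), hzC _ zi.1.2⟩, Subgroup.mul_mem _ (L.up_central _)
      (Subgroup.mem_center_iff.2 fun x => Subtype.ext (Subgroup.mem_center_iff.1 zi.1.2 (x : G)))⟩
  have hj : Function.Injective j := by
    rintro ⟨z, i⟩ ⟨z', i'⟩ h
    have h1 : gpow L.gen i * (z : G) = gpow L.gen i' * (z' : G) :=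
      congrArg (fun x : Subgroup.center (CP P) => ((x : CP P) : G)) h
    have hii : i = i' := by
      by_contra hne
      have h2 : gpow L.gen (i - i') = (z' : G) * (z : G)⁻¹ := by
        have h3 : gpow L.gen i = gpow L.gen i' * gpow L.gen (i - i') := by
          rw [← Brauer.OrderP.gpow_add L.ord, add_sub_cancel]
        rw [h3, mul_assoc] at h1
        rw [← mul_left_cancel h1, mul_inv_cancel_right]
      have h3 : gpow L.gen (i - i') ∈ Subgroup.center G :=
        h2 ▸ Subgroup.mul_mem _ z'.2 (Subgroup.inv_mem _ z.2)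
      obtain ⟨k, hk⟩ : ∃ k : ℕ, gpow L.gen (i - i') ^ k = L.gen := by
        refine ⟨(i - i')⁻¹.val, ?_⟩
        rw [gpow, ← pow_mul, ← Brauer.OrderP.gpow_natCast L.ord, Nat.cast_mul, ZMod.natCast_zmod_val,
          ZMod.natCast_zmod_val, mul_inv_cancel₀ (sub_ne_zero.2 hne), Brauer.OrderP.gpow_one L.ord]
      exact hgen (hk ▸ Subgroup.pow_mem _ h3 k)
    subst hii
    rw [Prod.mk.injEq]
    exact ⟨Subtype.ext (mul_left_cancel h1), rfl⟩
  have hcard : p * Nat.card (Subgroup.center G) ≤ Nat.card (Subgroup.center (CP P)) := by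
    have h := Nat.card_le_card_of_injective j hj
    rw [Nat.card_prod, Nat.card_eq_fintype_card (α := ZMod p), ZMod.card, mul_comm] at h
    exact h
  -- the values on the centre
  have hC : (charDegree (θ : CP P → ℂ) : ℝ) ^ 2 * Nat.card (Subgroup.center (CP P))
      ≤ (Nat.card (CP P) : ℝ) := by
    have htot : ∑ x : CP P, ‖(θ : CP P → ℂ) x‖ ^ 2 = (Nat.card (CP P) : ℝ) := by
      have h := Char.sum_mul_conj_eq_card_mul_classInner (θ : CP P → ℂ) (θ : CP P → ℂ)
      rw [Char.classInner_irr_self θ.2, mul_one] at h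
      simp only [Complex.mul_conj'] at h
      exact_mod_cast h
    rw [← htot, ← Finset.sum_filter_add_sum_filter_not Finset.univ (fun x => x ∈ Subgroup.center (CP P))]
    refine le_add_of_le_of_nonneg (le_of_eq ?_) (Finset.sum_nonneg fun x _ => sq_nonneg _)
    rw [Finset.sum_congr rfl (g := fun _ => (charDegree (θ : CP P → ℂ) : ℝ) ^ 2) fun x hx => ?_,
      Finset.sum_const, nsmul_eq_mul, mul_comm, Nat.card_eq_fintype_card, Fintype.card_subtype]
    obtain ⟨om, hom, hval, -⟩ := Char.irr_mul_center θ.2 (Finset.mem_filter.1 hx).2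
    rw [hval, norm_mul, Char.norm_eq_one_of_pow_orderOf_eq_one x hom,
      (Block.irr_one_eq_charDegree θ.2).1, Complex.norm_natCast, one_mul]
  have hC' : charDegree (θ : CP P → ℂ) ^ 2 * Nat.card (Subgroup.center (CP P)) ≤ Nat.card (CP P) := by
    exact_mod_cast hC
  calc _ = charDegree (θ : CP P → ℂ) ^ 2 * (p * Nat.card (Subgroup.center G)) := by ring
    _ ≤ _ := (Nat.mul_le_mul_left _ hcard).trans hC'

/-- A character with only the trivial constituent on the section is large. -/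
theorem x1_degree (hM : IsPModular p M) (hsq : ¬ p ^ 2 ∣ Nat.card G) (φ : IrrCharacter G)
    (hu : (φ : G → ℂ) L.gen ≠ (φ : G → ℂ) 1)
    (m : ∀ η : IrrCharacter (CP P), L.Triv (η : CP P → ℂ) → ZMod p → ℕ)
    (hm : ∀ (η : IrrCharacter (CP P)) h i, L.coef (φ : G → ℂ) (η : CP P → ℂ) i =
      ∑ b : ZMod p, (m η h b : ℂ) * ZMod.stdAddChar (b * i))
    (hrow : ∀ (η : IrrCharacter (CP P)) h c, L.row (φ : G → ℂ) η c = (m η h c : ℂ) - (m η h 0 : ℂ))
    (h1 : m (oneC P) L.triv_oneC 0 = 1 ∧ ∀ c, c ≠ 0 → m (oneC P) L.triv_oneC c = 0)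
    (hTI : ∀ c : CP P, (c : G) ∉ Subgroup.center G → ∀ g : G, ∀ c' : CP P,
      (c' : G) = g * (c : G) * g⁻¹ → g ∈ NP P)
    {w : ℕ} (hw : w ^ 2 * p * Nat.card (Subgroup.center G) ≤ Nat.card (CP P))
    (hw1 : 1 ≤ w) (hfw : 2 * (L.fN * w) + 1 < p) :
    1 + p * w ≤ charDegree (φ : G → ℂ) := by
  haveI : M.IsPrime := hM.2.1.isPrime
  have hp : p.Prime := Fact.out
  obtain ⟨B0, hB0⟩ := L.exists_induced hM (oneC P)
  have hmem : oneC P ∈ blockOf M (oneC P : CP P → ℂ) := Block.mem_blockOf_self _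
  have hc1 : ∀ i, L.coef (φ : G → ℂ) (oneC P : CP P → ℂ) i = 1 := fun i => by
    rw [hm _ L.triv_oneC, Finset.sum_eq_single (0 : ZMod p)]
    · simp [h1.1]
    · intro c _ hc; rw [h1.2 c hc]; simp
    · exact fun h => absurd (Finset.mem_univ _) h
  have hφB : φ ∈ B0 := by
    by_contra h
    have := L.coef_eq_zero hM hmem hB0 h (one_ne_zero (α := ZMod p))
    rw [hc1] at this
    exact one_ne_zero this
  have hone : Char.trivialIrr G ∈ B0 := by
    by_contra h
    have := L.coef_eq_zero hM hmem hB0 h (one_ne_zero (α := ZMod p))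
    rw [show (Char.trivialIrr G : G → ℂ) = fun _ => 1 from rfl, L.coef_one] at this
    exact one_ne_zero this
  have hBP : IsDefectGroup p M B0 P := by
    rw [Block.pBlock_eq hB0.2.1 hone]
    refine L.defectGroup_blockOf hM hsq _ ?_
    have h := (Block.irr_one_eq_charDegree (Char.trivialIrr G).2).1
    rw [show (Char.trivialIrr G : G → ℂ) 1 = ((1 : ℕ) : ℂ) by rw [Nat.cast_one]; rfl] at h
    rw [← Nat.cast_injective h]
    exact hp.not_dvd_one
  let T' := L.trivs.erase (oneC P)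
  have hoffc : ∀ η (h : L.Triv (η : IrrCharacter (CP P))), η ≠ oneC P → ∀ c, m η h c = m η h 0 := by
    intro η h hne c
    have hz : L.row (φ : G → ℂ) η c = 0 := by
      rw [row, rowv, Finset.sum_eq_zero, mul_zero]
      intro x _
      rcases eq_or_ne x 0 with rfl | hx
      · simp
      · rw [L.coef_eq_zero_off hM hB0.2.1 hBP hB0 hmem L.triv_oneC hφB h
          (fun n hn => hne (by rw [← hn, tw_oneC])) hx, zero_mul]
    rw [hrow η h c, sub_eq_zero] at hz
    exact_mod_cast hz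
  let μ : IrrCharacter (CP P) → ℕ := fun η =>
    if h : L.Triv (η : CP P → ℂ) then m η h 0 else 0
  have hcoef : ∀ η ∈ T', ∀ i, L.coef (φ : G → ℂ) (η : CP P → ℂ) i =
      if i = 0 then (p : ℂ) * (μ η : ℂ) else 0 := by
    intro η hη i
    obtain ⟨hne, hη'⟩ := Finset.mem_erase.1 hη
    have h := L.mem_trivs.1 hη'
    rw [hm η h i, Finset.sum_congr rfl fun c _ => by rw [hoffc η h hne c], ← Finset.mul_sum]
    simp only [μ, dif_pos h]
    rcases eq_or_ne i 0 with rfl | hi
    · simp [mul_comm]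
    · rw [sum_std, if_neg hi, if_neg hi, mul_zero]
  have hone' : oneC P ∈ L.trivs := L.mem_trivs.2 L.triv_oneC
  -- the degree
  set K := ∑ η ∈ T', μ η * charDegree (η : CP P → ℂ) with hK
  have hdeg : charDegree (φ : G → ℂ) = 1 + p * K := by
    refine Nat.cast_injective (R := ℂ) ?_
    have h := L.apply_section (Char.irr_isClassFunction φ.2) 0 (y := 1)
      (by rw [orderOf_one]; exact hp.not_dvd_one)
    rw [Brauer.OrderP.gpow_zero, OneMemClass.coe_one, mul_one,
      (Block.irr_one_eq_charDegree φ.2).1, ← Finset.add_sum_erase _ _ hone', hc1,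
      Finset.sum_congr rfl (g := fun η => (p : ℂ) * ((μ η * charDegree (η : CP P → ℂ) : ℕ) : ℂ))
        fun η hη => by
          rw [hcoef η hη 0, if_pos rfl, (Block.irr_one_eq_charDegree η.2).1]; push_cast; ring] at h
    rw [h, show (oneC P : CP P → ℂ) 1 = 1 from rfl, ← Finset.mul_sum, hK]
    push_cast
    ring
  have hS1 : 1 ≤ ∑ η ∈ T', μ η ^ 2 := by
    by_contra h0
    have hz : ∀ η ∈ T', μ η = 0 := fun η hη => by
      have := Finset.single_le_sum (f := fun η => μ η ^ 2) (fun _ _ => Nat.zero_le _) hη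
      have h2 : μ η ^ 2 = 0 := by omega
      exact pow_eq_zero_iff two_ne_zero |>.1 h2
    apply hu
    have h := L.apply_section (Char.irr_isClassFunction φ.2) 1 (y := 1)
      (by rw [orderOf_one]; exact hp.not_dvd_one)
    rw [Brauer.OrderP.gpow_one L.ord, OneMemClass.coe_one, mul_one, ← Finset.add_sum_erase _ _ hone',
      hc1, Finset.sum_eq_zero (fun η hη => by rw [hcoef η hη 1, if_neg one_ne_zero, zero_mul]),
      add_zero] at h
    rw [h, (Block.irr_one_eq_charDegree φ.2).1, hdeg, hK,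
      Finset.sum_eq_zero (fun η hη => by rw [hz η hη, zero_mul])]
    simp [oneC, Char.trivialIrr]
  -- the norm
  have hnorm : ∑ c : CP P, ‖(φ : G → ℂ) c‖ ^ 2
      = (Nat.card (CP P) : ℝ) * (1 + p * ((∑ η ∈ T', μ η ^ 2 : ℕ) : ℝ)) := by
    have h := L.sum_normSq_CP (Char.irr_isClassFunction φ.2)
    simp only [Complex.mul_conj'] at h
    have e : ∑ i : ZMod p, ∑ η ∈ L.trivs, ((‖L.coef (φ : G → ℂ) (η : CP P → ℂ) i‖ : ℂ)) ^ 2
        = (p : ℂ) + (p : ℂ) ^ 2 * ((∑ η ∈ T', μ η ^ 2 : ℕ) : ℂ) := by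
      rw [Finset.sum_comm, ← Finset.add_sum_erase _ _ hone']
      congr 1
      · simp [hc1]
      · rw [Finset.sum_congr rfl (g := fun η => (p : ℂ) ^ 2 * ((μ η ^ 2 : ℕ) : ℂ)) fun η hη => ?_,
          ← Finset.mul_sum]
        · push_cast; rfl
        · rw [Finset.sum_eq_single (0 : ZMod p), hcoef η hη 0, if_pos rfl]
          · simp [mul_pow]
          · intro i _ hi; rw [hcoef η hη i, if_neg hi]; simp
          · exact fun h => absurd (Finset.mem_univ _) h
    rw [e, V, div_mul_eq_mul_div] at h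
    refine Complex.ofReal_injective ?_
    push_cast
    rw [h]
    have hp0 : (p : ℂ) ≠ 0 := pC
    push_cast
    field_simp
  have hsplit : (∑ c : CP P, ‖(φ : G → ℂ) c‖ ^ 2) ≤ (Nat.card (NP P) : ℝ)
      + (Nat.card (Subgroup.center G) : ℝ) * (charDegree (φ : G → ℂ) : ℝ) ^ 2 := by
    rw [← Finset.sum_filter_add_sum_filter_not Finset.univ (fun c : CP P => (c : G) ∉ Subgroup.center G)]
    refine add_le_add (sum_normSq_le _ (fun c hc => hTI c (Finset.mem_filter.1 hc).2) φ) ?_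
    refine (Finset.sum_le_card_nsmul _ _ ((charDegree (φ : G → ℂ) : ℝ) ^ 2) fun c _ => ?_).trans ?_
    · refine pow_le_pow_left₀ (norm_nonneg _) ?_ 2
      refine (Char.isCharacter_norm_le (Char.isCharacter_of_irr φ.2) _).trans (le_of_eq ?_)
      rw [(Block.irr_one_eq_charDegree φ.2).1, Complex.natCast_re]
    · rw [nsmul_eq_mul]
      refine mul_le_mul_of_nonneg_right (Nat.cast_le.2 ?_) (sq_nonneg _)
      rw [← Nat.card_eq_finsetCard]
      refine Nat.card_le_card_of_injective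
        (fun c => (⟨((c.1 : CP P) : G), not_not.1 (Finset.mem_filter.1 c.2).2⟩ : Subgroup.center G)) ?_
      intro a c hac
      exact Subtype.ext (Subtype.ext (congrArg Subtype.val hac :))
  rw [hnorm, L.card_NP] at hsplit
  set z := Nat.card (Subgroup.center G) with hz
  set S2 := ∑ η ∈ T', μ η ^ 2 with hS2
  have hN : Nat.card (CP P) * (1 + p * S2) ≤ L.fN * Nat.card (CP P)
      + z * (1 + p * K) ^ 2 := by
    rw [← hdeg]
    have h := hsplit
    push_cast at h
    exact_mod_cast h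
  rw [hdeg]
  suffices hKw : w ≤ K by
    have := Nat.mul_le_mul_left p hKw
    omega
  by_contra hlt
  obtain ⟨v, rfl⟩ : ∃ v, w = v + 1 := ⟨w - 1, by omega⟩
  have hzpos : 0 < z := Nat.card_pos
  have hfp : L.fN < 1 + p * S2 := by
    have h2 : L.fN * 1 ≤ L.fN * (v + 1) := Nat.mul_le_mul_left _ hw1
    have h3 : p * 1 ≤ p * S2 := Nat.mul_le_mul_left p hS1
    omega
  obtain ⟨r, hr⟩ : ∃ r, 1 + p * S2 = L.fN + r := ⟨1 + p * S2 - L.fN, by omega⟩
  have h4 : Nat.card (CP P) * r ≤ z * (1 + p * K) ^ 2 := by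
    rw [hr] at hN
    nlinarith
  have h5 : (v + 1) ^ 2 * p * z * r ≤ z * (1 + p * K) ^ 2 := (Nat.mul_le_mul_right r hw).trans h4
  have h6 : (v + 1) ^ 2 * p * r ≤ (1 + p * v) ^ 2 := by
    have h7 : (1 + p * K) ^ 2 ≤ (1 + p * v) ^ 2 :=
      Nat.pow_le_pow_left (Nat.add_le_add_left (Nat.mul_le_mul_left p (by omega)) 1) 2
    have h8 : z * ((v + 1) ^ 2 * p * r) ≤ z * (1 + p * v) ^ 2 := by
      calc z * ((v + 1) ^ 2 * p * r) = (v + 1) ^ 2 * p * z * r := by ring
        _ ≤ z * (1 + p * K) ^ 2 := h5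
        _ ≤ _ := Nat.mul_le_mul_left z h7
    exact Nat.le_of_mul_le_mul_left h8 hzpos
  have h9 : p + 1 ≤ L.fN + r := by
    have h3 : p * 1 ≤ p * S2 := Nat.mul_le_mul_left p hS1
    omega
  have h10 : (v + 1) ^ 2 * p * (p + 1) ≤ (v + 1) ^ 2 * p * (L.fN + r) := Nat.mul_le_mul_left _ h9
  have h11 : (v + 1) * p * (2 * (L.fN * (v + 1)) + 2) ≤ (v + 1) * p * p :=
    Nat.mul_le_mul_left _ (by omega)
  have h12 : 2 * 2 ≤ p * p := Nat.mul_le_mul hp.two_le hp.two_le
  nlinarith [Nat.zero_le (p * p * v), Nat.zero_le (p * v * v), Nat.zero_le (p * v)]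

end Loc

end Cfsg.Agent.DefOne
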