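import Cfsg.Agent.DefOne.Faithful

/-!
# A group with a faithful character of small degree has a normal Sylow subgroup of order `p`
-/

set_option linter.style.haveILetI false
set_option linter.unusedSectionVars false

noncomputable section

namespace Cfsg.Agent.DefOne

open Cfsg
open Cfsg.Agent.Brauer.OrderP (gpow)
open Cfsg.Agent.DefOne.Loc (oneC)
open scoped ComplexConjugate Classical

universe u

/-- If `p` divides the order once and a faithful character has degree less than `(p - 1) / 2`,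
then the Sylow `p`-subgroup is normal. -/
theorem sylow_normal_of_small {p : ℕ} [Fact p.Prime] {M : Ideal AlgInt} (hM : IsPModular p M) :
    ∀ (N : ℕ) (G : Type u) [Group G] [Fintype G], Nat.card G = N → ¬ p ^ 2 ∣ Nat.card G →
      ∀ P : Sylow p G, Nat.card P = p → ∀ χ : G → ℂ, IsCharacter G χ →
      (∀ g, χ g = χ 1 → g = 1) → 2 * charDegree χ + 1 < p → (P : Subgroup G).Normal := by
  intro N
  induction N using Nat.strong_induction_on with
  | _ N IH =>
  intro G _ _ hN hsq P hP χ hχ hfaith hdeg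
  by_contra hnn
  haveI : M.IsPrime := hM.2.1.isPrime
  have hp : p.Prime := Fact.out
  obtain ⟨L⟩ := exists_loc P hP
  have hgenP : L.gen ∈ (P : Subgroup G) := L.hgen ▸ Subgroup.mem_zpowers _
  have hgen1 : L.gen ≠ 1 := fun h => hp.ne_one (by rw [← L.ord, h, orderOf_one])
  -- proper subgroups over `P`
  have hsub : ∀ H : Subgroup G, (P : Subgroup G) ≤ H → H ≠ ⊤ → H ≤ NP P := by
    intro H hPH hHtop
    have hlt : Nat.card H < N := by
      rw [← hN]
      refine lt_of_le_of_ne (Subgroup.card_le_card_group H) fun h => hHtop ?_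
      exact Subgroup.eq_top_of_card_eq H h
    have hsqH : ¬ p ^ 2 ∣ Nat.card H := fun h => hsq (h.trans (Subgroup.card_subgroup_dvd_card H))
    have hPc : Nat.card (P.subtype hPH) = p := by
      exact (Nat.card_congr (Subgroup.subgroupOfEquivOfLe hPH).toEquiv).trans hP
    have hdeg' : 2 * charDegree (fun h : H => χ h) + 1 < p := by
      have : charDegree (fun h : H => χ h) = charDegree χ := by simp [charDegree]
      rw [this]; exact hdeg
    have h := IH _ hlt H rfl hsqH (P.subtype hPH) hPc (fun h => χ h)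
      (Char.isCharacter_restrict hχ H) (fun h hh => Subtype.ext (hfaith h hh)) hdeg'
    rw [Sylow.coe_subtype] at h
    haveI := h
    exact Subgroup.le_normalizer_of_normal_subgroupOf hPH
  have hNtop : NP P ≠ ⊤ := fun h => hnn (Subgroup.normalizer_eq_top_iff.1 h)
  -- normal subgroups meeting `P`
  have hker : ∀ K : Subgroup G, K.Normal → L.gen ∈ K → K = ⊤ := by
    intro K hK hgK
    by_contra hKtop
    have hKN : K ≤ NP P := hsub K (L.hgen ▸ Subgroup.zpowers_le.2 hgK) hKtop
    apply hNtop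
    refine top_le_iff.1 fun g _ => ?_
    by_contra hg
    refine hgen1 (Brauer.OrderP.free P hP hg hgenP (hKN ?_))
    simpa using hK.conj_mem _ hgK g⁻¹
  have hgenc : L.gen ∉ Subgroup.center G := by
    intro h
    have hcen : (P : Subgroup G) ≤ Subgroup.center G := L.hgen ▸ Subgroup.zpowers_le.2 h
    exact hnn ⟨fun x hx g => by
      rw [Subgroup.mem_center_iff.1 (hcen hx) g, mul_inv_cancel_right]; exact hx⟩
  have hirr : ∀ φ : IrrCharacter G, (φ : G → ℂ) ≠ (fun _ => 1) →
      (φ : G → ℂ) L.gen ≠ (φ : G → ℂ) 1 := by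
    intro φ hφ h
    obtain ⟨K, hKn, hK⟩ := Char.isCharacter_exists_kernel (Char.isCharacter_of_irr φ.2)
    have hconst : ∀ x, (φ : G → ℂ) x = (φ : G → ℂ) 1 := fun x =>
      (hK x).1 (hker K hKn ((hK _).2 h) ▸ Subgroup.mem_top x)
    have := Char.irr_sum_eq_zero φ.2 hφ
    simp [hconst] at this
    exact Char.irr_one_ne_zero φ.2 this
  have hTI : ∀ c : CP P, (c : G) ∉ Subgroup.center G → ∀ g : G, ∀ c' : CP P,
      (c' : G) = g * (c : G) * g⁻¹ → g ∈ NP P := by
    intro c hc g c' hcc
    set H := Subgroup.centralizer ({(c : G)} : Set G) with hH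
    have hHtop : H ≠ ⊤ := fun h => hc (Subgroup.mem_center_iff.2 fun x =>
      Subgroup.mem_centralizer_singleton_iff.1 (h ▸ Subgroup.mem_top x : x ∈ H))
    have hPH : (P : Subgroup G) ≤ H := fun x hx =>
      Subgroup.mem_centralizer_singleton_iff.2 (Subgroup.mem_centralizer_iff.1 c.2 x hx)
    by_contra hg
    refine hgen1 (Brauer.OrderP.free P hP hg hgenP (hsub H hPH hHtop ?_))
    rw [hH, Subgroup.mem_centralizer_singleton_iff]
    have h1 := Subgroup.mem_centralizer_iff.1 c'.2 _ hgenP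
    rw [hcc] at h1
    calc g⁻¹ * L.gen * g * (c : G) = g⁻¹ * (L.gen * (g * (c : G) * g⁻¹)) * g := by group
      _ = g⁻¹ * (g * (c : G) * g⁻¹ * L.gen) * g := by rw [h1]
      _ = _ := by group
  -- the constituents
  choose a ha using fun ψ : IrrCharacter G => Char.isCharacter_classInner_nat hχ ψ
  have hχeq : ∀ g, χ g = ∑ ψ : IrrCharacter G, (a ψ : ℂ) * (ψ : G → ℂ) g := by
    intro g
    conv_lhs => rw [Char.eq_sum_classInner_smul (Char.isCharacter_isClassFunction hχ)]
    simp [Finset.sum_apply, ha]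
  have hle : ∀ ψ : IrrCharacter G, a ψ ≠ 0 → charDegree (ψ : G → ℂ) ≤ charDegree χ := by
    intro ψ hψ
    have h : charDegree χ = ∑ φ : IrrCharacter G, a φ * charDegree (φ : G → ℂ) := by
      refine Nat.cast_injective (R := ℂ) ?_
      push_cast
      rw [← BlkChar.isCharacter_one_eq_charDegree hχ, hχeq 1]
      exact Finset.sum_congr rfl fun φ _ => by rw [(Block.irr_one_eq_charDegree φ.2).1]
    rw [h]
    exact (Nat.le_mul_of_pos_left _ (Nat.pos_of_ne_zero hψ)).trans
      (Finset.single_le_sum (f := fun φ : IrrCharacter G => a φ * charDegree (φ : G → ℂ))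
        (fun _ _ => Nat.zero_le _) (Finset.mem_univ ψ))
  obtain ⟨ψ, hψa, hψu⟩ : ∃ ψ : IrrCharacter G, a ψ ≠ 0 ∧ (ψ : G → ℂ) L.gen ≠ (ψ : G → ℂ) 1 := by
    by_contra hcon
    push Not at hcon
    refine hgen1 (hfaith _ ?_)
    rw [hχeq, hχeq]
    refine Finset.sum_congr rfl fun φ _ => ?_
    rcases eq_or_ne (a φ) 0 with h | h
    · simp [h]
    · rw [hcon φ h]
  have hψn : 2 * charDegree (ψ : G → ℂ) + 1 < p := by have := hle ψ hψa; omega
  obtain ⟨k, e, w, hke, hkew, he, ⟨θ, hθw⟩, hT0, hTsum, -⟩ := L.small_data hM hsq hψn hψu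
  have hw1 : 1 ≤ w := by rw [← hθw]; exact (Block.irr_one_eq_charDegree θ.2).2.1
  -- the case of a trivial automiser
  have hf2 : 2 ≤ L.fN := by
    by_contra hf
    have hf1 : L.fN = 1 := le_antisymm (by omega) Nat.card_pos
    refine hgenc (Subgroup.mem_center_iff.2 fun x => ?_)
    have key : χ (L.gen * (x * L.gen⁻¹ * x⁻¹)) = χ 1 := by
      rw [hχeq, hχeq]
      refine Finset.sum_congr rfl fun φ _ => ?_
      rcases eq_or_ne (a φ) 0 with h | h
      · simp [h]
      congr 1
      have hφc := Char.isCharacter_of_irr φ.2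
      have hnorm : ‖(φ : G → ℂ) L.gen‖ = ((φ : G → ℂ) 1).re := by
        rw [(Block.irr_one_eq_charDegree φ.2).1, Complex.natCast_re]
        by_cases hu : (φ : G → ℂ) L.gen = (φ : G → ℂ) 1
        · rw [hu, (Block.irr_one_eq_charDegree φ.2).1, Complex.norm_natCast]
        · have hn' : 2 * charDegree (φ : G → ℂ) + 1 < p := by have := hle φ h; omega
          obtain ⟨_, _, _, -, -, -, -, -, -, hn⟩ := L.small_data hM hsq hn' hu
          exact hn hf1
      obtain ⟨ω, -, hmul⟩ := Char.isCharacter_mul_of_norm_eq hφc hnorm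
      rw [(hmul _).1, Char.isCharacter_isClassFunction hφc L.gen⁻¹ x, ← (hmul L.gen⁻¹).1,
        mul_inv_cancel]
    have h3 := hfaith _ key
    have h4 : L.gen * x * L.gen⁻¹ * x⁻¹ = 1 := by simpa [mul_assoc] using h3
    rw [mul_inv_eq_one, mul_inv_eq_iff_eq_mul] at h4
    exact h4.symm
  -- the decomposition of the square
  set Φ : G → ℂ := fun g => (ψ : G → ℂ) g * conj ((ψ : G → ℂ) g) with hΦ
  have hΦc : IsCharacter G Φ :=
    Char.isCharacter_mul (Char.isCharacter_of_irr ψ.2)
      (Char.isCharacter_conjFun (Char.isCharacter_of_irr ψ.2))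
  choose c hc using fun φ : IrrCharacter G => Char.isCharacter_classInner_nat hΦc φ
  have hΦeq : Φ = fun g => ∑ φ : IrrCharacter G, (c φ : ℂ) * (φ : G → ℂ) g := by
    funext g
    conv_lhs => rw [Char.eq_sum_classInner_smul (Char.isCharacter_isClassFunction hΦc)]
    simp [Finset.sum_apply, hc]
  set one := Char.trivialIrr G with hone
  have hc1 : c one = 1 := by
    refine Nat.cast_injective (R := ℂ) ?_
    rw [← hc, Nat.cast_one, ← Char.classInner_irr_self ψ.2, classInner, classInner]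
    congr 1
    exact Finset.sum_congr rfl fun g _ => by
      rw [show (one : G → ℂ) g = 1 from rfl, map_one, mul_one]
  choose m hm hrow using fun (φ : IrrCharacter G) (η : IrrCharacter (CP P))
    (h : L.Triv (η : CP P → ℂ)) => L.exists_multFun (Char.isCharacter_of_irr φ.2) h
  let T : IrrCharacter G → ℕ := fun φ => ∑ x : ZMod p, m φ (oneC P) L.triv_oneC x
  let R : IrrCharacter G → ℕ := fun φ => m φ (oneC P) L.triv_oneC 0
  have hTv : ∀ φ : IrrCharacter G, L.coef (φ : G → ℂ) (oneC P : CP P → ℂ) 0 = (T φ : ℂ) := fun φ => by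
    rw [hm φ _ L.triv_oneC]; simp [T]
  have hRv : ∀ φ : IrrCharacter G,
      ∑ i : ZMod p, L.coef (φ : G → ℂ) (oneC P : CP P → ℂ) i = (p : ℂ) * (R φ : ℂ) := fun φ => by
    simp only [hm φ _ L.triv_oneC]
    rw [Finset.sum_comm, Finset.sum_eq_single (0 : ZMod p)]
    · simp [R]
    · intro b _ hb
      rw [← Finset.mul_sum, Finset.sum_congr rfl (g := fun i => ZMod.stdAddChar (i * b))
        (fun i _ => by rw [mul_comm]), Brauer.OrderP.sum_std, if_neg hb, mul_zero]
    · exact fun h => absurd (Finset.mem_univ _) h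
  have hcoefΦ : ∀ i, ∑ η ∈ L.trivs, L.coef (ψ : G → ℂ) (η : CP P → ℂ) i *
      conj (L.coef (ψ : G → ℂ) (η : CP P → ℂ) i)
      = ∑ φ : IrrCharacter G, (c φ : ℂ) * L.coef (φ : G → ℂ) (oneC P : CP P → ℂ) i := fun i => by
    rw [← L.coef_oneC_mul_conj (Char.irr_isClassFunction ψ.2) i, ← L.coef_sum]
    exact congrArg (fun F : G → ℂ => L.coef F (oneC P : CP P → ℂ) i) hΦeq
  have hT1 : ∑ φ : IrrCharacter G, c φ * T φ = k * e * e := by
    refine Nat.cast_injective (R := ℂ) ?_
    rw [← hT0, hcoefΦ 0]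
    push_cast
    exact Finset.sum_congr rfl fun φ _ => by rw [hTv]
  have hR1 : ∑ φ : IrrCharacter G, c φ * R φ = k * e := by
    refine Nat.eq_of_mul_eq_mul_left hp.pos (Nat.cast_injective (R := ℂ) ?_)
    rw [← hTsum, Finset.sum_congr rfl fun i _ => hcoefΦ i, Finset.sum_comm]
    push_cast
    rw [Finset.mul_sum]
    exact Finset.sum_congr rfl fun φ _ => by rw [← Finset.mul_sum, hRv]; ring
  have hD1 : ∑ φ : IrrCharacter G, c φ * charDegree (φ : G → ℂ) = charDegree (ψ : G → ℂ) ^ 2 := by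
    refine Nat.cast_injective (R := ℂ) ?_
    push_cast
    rw [Finset.sum_congr rfl fun φ (_ : φ ∈ Finset.univ) =>
      show (c φ : ℂ) * (charDegree (φ : G → ℂ) : ℂ) = (c φ : ℂ) * (φ : G → ℂ) 1 by
        rw [(Block.irr_one_eq_charDegree φ.2).1]]
    rw [show ∑ φ : IrrCharacter G, (c φ : ℂ) * (φ : G → ℂ) 1 = Φ 1 from (congrFun hΦeq 1).symm,
      hΦ]
    simp only [(Block.irr_one_eq_charDegree ψ.2).1, Complex.conj_natCast]
    ring
  -- the trivial constituent
  have hTone : T one = 1 := by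
    refine Nat.cast_injective (R := ℂ) ?_
    rw [← hTv, Nat.cast_one]
    exact L.coef_one 0
  have hRone : R one = 1 := by
    refine Nat.eq_of_mul_eq_mul_left hp.pos (Nat.cast_injective (R := ℂ) ?_)
    push_cast
    rw [← hRv, Finset.sum_congr rfl fun i _ => show L.coef (one : G → ℂ) (oneC P : CP P → ℂ) i = 1 from
      L.coef_one i]
    simp
  have hDone : charDegree (one : G → ℂ) = 1 := by
    refine Nat.cast_injective (R := ℂ) ?_
    rw [← (Block.irr_one_eq_charDegree one.2).1, Nat.cast_one]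
    rfl
  set S := (Finset.univ : Finset (IrrCharacter G)).erase one with hS
  rw [← Finset.add_sum_erase _ _ (Finset.mem_univ one), hc1, hTone] at hT1
  rw [← Finset.add_sum_erase _ _ (Finset.mem_univ one), hc1, hRone] at hR1
  rw [← Finset.add_sum_erase _ _ (Finset.mem_univ one), hc1, hDone] at hD1
  let X1 : IrrCharacter G → Prop := fun φ => R φ = 1 ∧ ∀ x, x ≠ 0 → m φ (oneC P) L.triv_oneC x = 0
  have hne1 : ∀ φ ∈ S, (φ : G → ℂ) ≠ fun _ => 1 := fun φ hφ h =>
    (Finset.mem_erase.1 hφ).1 (Subtype.ext h)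
  have hTX : ∀ φ, X1 φ → T φ = 1 := fun φ h => by
    show ∑ x : ZMod p, m φ (oneC P) L.triv_oneC x = 1
    rw [Finset.sum_eq_single (0 : ZMod p) (fun x _ hx => h.2 x hx)
      (fun h' => absurd (Finset.mem_univ _) h')]
    exact h.1
  have hTD : ∀ φ : IrrCharacter G, T φ ≤ charDegree (φ : G → ℂ) := by
    intro φ
    rw [L.degree_eq (Char.isCharacter_of_irr φ.2) (m φ) (hm φ)]
    refine le_trans ?_ (Finset.single_le_sum (f := fun η : {x // x ∈ L.trivs} =>
      (∑ x : ZMod p, m φ η.1 (L.mem_trivs.1 η.2) x) * charDegree (η.1 : CP P → ℂ))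
      (fun _ _ => Nat.zero_le _) (Finset.mem_attach _ ⟨oneC P, L.mem_trivs.2 L.triv_oneC⟩))
    exact Nat.le_mul_of_pos_right _ (Block.irr_one_eq_charDegree (oneC P).2).2.1
  have hfn : L.fN * w = charDegree (ψ : G → ℂ) := by rw [← hke]; exact hkew
  have hw : w ^ 2 * p * Nat.card (Subgroup.center G) ≤ Nat.card (CP P) :=
    hθw ▸ L.sq_degree_le hgenc θ
  set A := ∑ φ ∈ S.filter (fun φ => ¬ X1 φ), c φ * T φ with hA
  set C := ∑ φ ∈ S.filter X1, c φ with hC
  have hT2 : L.fN * e = 1 + C + A := by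
    rw [← Finset.sum_filter_add_sum_filter_not S X1,
      Finset.sum_congr rfl (g := fun φ => c φ) (fun φ hφ => by rw [hTX φ (Finset.mem_filter.1 hφ).2, mul_one])]
      at hT1
    rw [← hke]
    rw [hA, hC]
    linarith
  have hD2 : 1 + A + (1 + p * w) * C ≤ charDegree (ψ : G → ℂ) ^ 2 := by
    rw [← hD1, ← Finset.sum_filter_add_sum_filter_not S X1, hA, hC, Finset.mul_sum,
      add_right_comm, ← add_assoc, one_mul]
    refine add_le_add (add_le_add_right (Finset.sum_le_sum fun φ hφ => ?_) 1)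
      (Finset.sum_le_sum fun φ _ => Nat.mul_le_mul_left _ (hTD φ))
    obtain ⟨hφS, hφX⟩ := Finset.mem_filter.1 hφ
    rw [mul_comm]
    refine Nat.mul_le_mul_left _ ?_
    exact L.x1_degree hM hsq φ (hirr φ (hne1 φ hφS)) (m φ) (hm φ) (hrow φ) hφX hTI hw hw1
      (by rw [hfn]; exact hψn)
  have hR2 : p * L.fN ≤ p + 2 * A + p * C := by
    rw [← hke, ← hR1, ← Finset.sum_filter_add_sum_filter_not S X1, mul_add, mul_add, hA, hC,
      Finset.mul_sum, Finset.mul_sum, Finset.mul_sum, Finset.mul_sum, one_mul, mul_one,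
      add_assoc p, add_comm (∑ i ∈ S.filter _, 2 * _)]
    refine add_le_add_right (add_le_add (Finset.sum_le_sum fun φ hφ => ?_)
      (Finset.sum_le_sum fun φ hφ => ?_)) p
    · rw [(Finset.mem_filter.1 hφ).2.1, mul_one]
    · rcases L.excess hM hsq φ (hrow φ _ L.triv_oneC) with h | h
      · calc p * (c φ * R φ) = c φ * (p * R φ) := by ring
          _ ≤ c φ * (2 * T φ) := Nat.mul_le_mul_left _ h
          _ = _ := by ring
      · exact absurd h (Finset.mem_filter.1 hφ).2
  have hpodd : p % 2 = 1 := by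
    have := (Block.irr_one_eq_charDegree ψ.2).2.1
    exact Nat.odd_iff.1 (hp.odd_of_ne_two (by omega))
  have hek : e ≤ L.fN := by
    rcases Nat.eq_zero_or_pos k with rfl | hk
    · rw [zero_mul] at hke; omega
    · rw [← hke]; exact Nat.le_mul_of_pos_left _ hk
  exact false_of_counts hpodd hf2 hek hfn.symm hw1 hψn hT2 hD2 hR2

end Cfsg.Agent.DefOne
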